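import Mathlib
import Cfsg.Agent.Lib.Helper14.DG33.Defs

/-!
# DG33 (S3670), package [ARITH6]

From the numerical data `ArithHyp` (multiplicities of the irreducible characters of `PSU(3,3)` in
the characters induced from the Borel subgroup) some irreducible degree is divisible by `6`.
-/

set_option autoImplicit false

namespace Cfsg.Agent.Lib.Helper15.DG33

open Cfsg.Agent.Lib.Helper14.DG33

universe u

section ind

set_option linter.unusedSectionVars false

variable {ι : Type u} [Fintype ι] [DecidableEq ι]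

theorem ind_one_on (s : Finset ι) (f : ι → ℕ) (h : ∑ χ ∈ s, f χ * f χ = 1) :
    ∃ a ∈ s, f a = 1 ∧ ∀ χ ∈ s, χ ≠ a → f χ = 0 := by
  have hex : ∃ a ∈ s, f a ≠ 0 := by
    by_contra hcon
    push Not at hcon
    rw [Finset.sum_eq_zero (fun χ hχ => by rw [hcon χ hχ, mul_zero])] at h
    exact absurd h (by norm_num)
  obtain ⟨a, has, ha⟩ := hex
  have hsplit : f a * f a + ∑ χ ∈ s.erase a, f χ * f χ = 1 := by
    rw [← h]; exact Finset.add_sum_erase s (fun χ => f χ * f χ) has
  have hpos : 0 < f a * f a := Nat.mul_pos (Nat.pos_of_ne_zero ha) (Nat.pos_of_ne_zero ha)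
  have hS : ∑ χ ∈ s.erase a, f χ * f χ = 0 := by omega
  have ha1 : f a * f a = 1 * 1 := by omega
  refine ⟨a, has, Nat.mul_self_inj.mp ha1, fun χ hχ hne => ?_⟩
  have := (Finset.sum_eq_zero_iff.mp hS) χ (Finset.mem_erase.mpr ⟨hne, hχ⟩)
  exact mul_self_eq_zero.mp this

theorem ind_one (f : ι → ℕ) (h : ∑ χ, f χ * f χ = 1) :
    ∃ a, ∀ χ, f χ = if χ = a then 1 else 0 := by
  obtain ⟨a, -, ha, hrest⟩ := ind_one_on Finset.univ f h
  refine ⟨a, fun χ => ?_⟩
  by_cases hχ : χ = a
  · rw [if_pos hχ, hχ, ha]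
  · rw [if_neg hχ]; exact hrest χ (Finset.mem_univ χ) hχ

theorem ind_two (f : ι → ℕ) (h : ∑ χ, f χ * f χ = 2) :
    ∃ a b, a ≠ b ∧ ∀ χ, f χ = (if χ = a then 1 else 0) + (if χ = b then 1 else 0) := by
  have hex : ∃ a, f a ≠ 0 := by
    by_contra hcon
    push Not at hcon
    rw [Finset.sum_eq_zero (fun χ _ => by rw [hcon χ, mul_zero])] at h
    exact absurd h (by norm_num)
  obtain ⟨a, ha⟩ := hex
  have hsplit : f a * f a + ∑ χ ∈ Finset.univ.erase a, f χ * f χ = 2 := by
    rw [← h]; exact Finset.add_sum_erase Finset.univ (fun χ => f χ * f χ) (Finset.mem_univ a)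
  have ha1 : f a = 1 := by
    have hpos : 0 < f a := Nat.pos_of_ne_zero ha
    by_contra hne
    have h2 : 2 ≤ f a := by omega
    have h4 : 2 * 2 ≤ f a * f a := Nat.mul_le_mul h2 h2
    omega
  rw [ha1] at hsplit
  have hS : ∑ χ ∈ Finset.univ.erase a, f χ * f χ = 1 := by omega
  obtain ⟨b, hb, hb1, hrest⟩ := ind_one_on (Finset.univ.erase a) f hS
  have hba : b ≠ a := (Finset.mem_erase.mp hb).1
  refine ⟨a, b, hba.symm, fun χ => ?_⟩
  by_cases hχa : χ = a
  · rw [hχa, if_pos rfl, if_neg hba.symm, ha1]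
  · by_cases hχb : χ = b
    · rw [hχb, if_neg hba, if_pos rfl, hb1]
    · rw [if_neg hχa, if_neg hχb]
      exact hrest χ (Finset.mem_erase.mpr ⟨hχa, Finset.mem_univ χ⟩) hχb

theorem sum_ind1 {f : ι → ℕ} {a : ι} (hf : ∀ χ, f χ = if χ = a then 1 else 0) (g : ι → ℕ) :
    ∑ χ, f χ * g χ = g a := by
  simp only [hf, ite_mul, one_mul, zero_mul, Finset.sum_ite_eq', Finset.mem_univ, if_true]

theorem sum_ind2 {f : ι → ℕ} {a b : ι}
    (hf : ∀ χ, f χ = (if χ = a then 1 else 0) + (if χ = b then 1 else 0)) (g : ι → ℕ) :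
    ∑ χ, f χ * g χ = g a + g b := by
  simp only [hf, add_mul, ite_mul, one_mul, zero_mul, Finset.sum_add_distrib,
    Finset.sum_ite_eq', Finset.mem_univ, if_true]

theorem sum_lin (r m : ι → ℕ) :
    ∑ χ, r χ * (8 + 6 * m χ) = 8 * ∑ χ, r χ + 6 * ∑ χ, r χ * m χ := by
  rw [Finset.mul_sum, Finset.mul_sum, ← Finset.sum_add_distrib]
  exact Finset.sum_congr rfl (fun χ _ => by ring)

theorem sum_quad (r m : ι → ℕ) :
    ∑ χ, r χ * (8 + 6 * m χ) ^ 2 =
      64 * ∑ χ, r χ + 96 * ∑ χ, r χ * m χ + 36 * ∑ χ, r χ * m χ ^ 2 := by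
  rw [Finset.mul_sum, Finset.mul_sum, Finset.mul_sum, ← Finset.sum_add_distrib,
    ← Finset.sum_add_distrib]
  exact Finset.sum_congr rfl (fun χ _ => by ring)

end ind

theorem pkgArith6 : PkgArith6.{u} := by
  intro ι _ d c x m χ₀ H
  classical
  by_contra hcon
  push Not at hcon
  obtain ⟨A1, A2, A3, A4, A5, A6, A7, A7u, A8, A9⟩ := H
  obtain ⟨hd0, hc00, hcj0, hx0⟩ := A7
  have hp : ∀ i j, i < 8 → j < 8 → i ≠ j → i ≠ 5 * j % 8 → ∀ χ, c i χ * c j χ = 0 := by
    intro i j hi hj hij hij' χ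
    have h := A2 i j hi hj
    rw [if_neg hij, if_neg hij'] at h
    exact (Finset.sum_eq_zero_iff.mp h) χ (Finset.mem_univ χ)
  have hle1 : ∀ j, j < 8 → ∀ χ, c j χ ≤ 1 := by
    intro j hj χ
    have h := A2 j j hj hj
    have hle : c j χ * c j χ ≤ ∑ χ, c j χ * c j χ :=
      Finset.single_le_sum (f := fun χ => c j χ * c j χ) (fun i _ => Nat.zero_le _)
        (Finset.mem_univ χ)
    rw [h, if_pos rfl] at hle
    have h1 : (if j = 5 * j % 8 then 1 else 0) ≤ 1 := by split_ifs <;> norm_num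
    by_contra hcon2
    have h2 : 2 ≤ c j χ := by omega
    have h4 : 2 * 2 ≤ c j χ * c j χ := Nat.mul_le_mul h2 h2
    omega
  -- class 0
  have h00 : ∑ χ, c 0 χ * c 0 χ = 2 := by
    have := A2 0 0 (by norm_num) (by norm_num)
    simpa using this
  obtain ⟨p, q, hpq, hc0⟩ := ind_two (c 0) h00
  have hSt : ∃ St, ∀ χ, c 0 χ = (if χ = χ₀ then 1 else 0) + (if χ = St then 1 else 0) := by
    have h := hc0 χ₀
    rw [hc00] at h
    by_cases h1 : χ₀ = p
    · exact ⟨q, fun χ => by rw [hc0 χ, h1]⟩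
    · rw [if_neg h1] at h
      by_cases h2 : χ₀ = q
      · exact ⟨p, fun χ => by rw [hc0 χ, h2, add_comm]⟩
      · rw [if_neg h2] at h; exact absurd h (by norm_num)
  obtain ⟨St, hc0'⟩ := hSt
  have hxSt : x St = 1 := by
    have h := A3 0 (by norm_num)
    rw [sum_ind2 hc0' x, hx0] at h
    omega
  have hdSt : d St = 27 := by
    have h := A8 0 (by norm_num)
    rw [sum_ind2 hc0' d, hd0] at h
    omega
  -- classes {1, 5} and {3, 7}
  have hodd : ∀ i k, i < 8 → k < 8 → 5 * i % 8 = k → 5 * k % 8 = i → i ≠ k →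
      ∃ s, (∀ χ, c i χ = if χ = s then 1 else 0) ∧ (∀ χ, c k χ = c i χ) ∧ x s = 1 ∧
        d s = 28 := by
    intro i k hi hk hik hki hne
    have hii : ∑ χ, c i χ * c i χ = 1 := by
      have := A2 i i hi hi
      rw [if_pos rfl, if_neg (by omega)] at this
      exact this
    have hkk : ∑ χ, c k χ * c k χ = 1 := by
      have := A2 k k hk hk
      rw [if_pos rfl, if_neg (by omega)] at this
      exact this
    have hik' : ∑ χ, c i χ * c k χ = 1 := by
      have := A2 i k hi hk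
      rw [if_neg hne, if_pos hki.symm] at this
      exact this
    obtain ⟨s, hs⟩ := ind_one (c i) hii
    obtain ⟨s', hs'⟩ := ind_one (c k) hkk
    have hss : s = s' := by
      rw [sum_ind1 hs (c k), hs' s] at hik'
      by_contra hne'
      rw [if_neg hne'] at hik'; exact absurd hik' (by norm_num)
    refine ⟨s, hs, fun χ => by rw [hs' χ, hs χ, hss], ?_, ?_⟩
    · have h := A3 i hi; rwa [sum_ind1 hs x] at h
    · have h := A8 i hi; rwa [sum_ind1 hs d] at h
  obtain ⟨s1, hc1, hc51, hxs1, hds1⟩ :=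
    hodd 1 5 (by norm_num) (by norm_num) (by norm_num) (by norm_num) (by norm_num)
  obtain ⟨s3, hc3, hc73, hxs3, hds3⟩ :=
    hodd 3 7 (by norm_num) (by norm_num) (by norm_num) (by norm_num) (by norm_num)
  -- classes 2, 4, 6
  have hmid : ∀ j, (j = 2 ∨ j = 4 ∨ j = 6) → ∃ a b,
      (∀ χ, c j χ = (if χ = a then 1 else 0) + (if χ = b then 1 else 0)) ∧
        x a = 0 ∧ x b = 1 ∧ d a = 7 ∧ d b = 21 := by
    intro j hj
    have hj8 : j < 8 := by omega
    have hj0 : 0 < j := by omega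
    have h5j : 5 * j % 8 = j := by rcases hj with rfl | rfl | rfl <;> rfl
    have hjj : ∑ χ, c j χ * c j χ = 2 := by
      have := A2 j j hj8 hj8
      rw [if_pos rfl, if_pos h5j.symm] at this
      exact this
    obtain ⟨a, b, hab, hcj⟩ := ind_two (c j) hjj
    have hxab : x a + x b = 1 := by
      have h := A3 j hj8; rwa [sum_ind2 hcj x] at h
    have hdab : d a + d b = 28 := by
      have h := A8 j hj8; rwa [sum_ind2 hcj d] at h
    have hcja : c j a = 1 := by rw [hcj a, if_pos rfl, if_neg hab]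
    have hcjb : c j b = 1 := by rw [hcj b, if_neg (Ne.symm hab), if_pos rfl]
    have hsum : ∀ y, c j y = 1 → ∑ i ∈ Finset.range 8, c i y = 1 := by
      intro y hy
      rw [Finset.sum_eq_single j, hy]
      · intro i hi hij
        have h := hp i j (Finset.mem_range.mp hi) hj8 hij (by rw [h5j]; exact hij) y
        rw [hy, mul_one] at h
        exact h
      · intro hnot; exact absurd (Finset.mem_range.mpr hj8) hnot
    have key : ∀ a b, c j a = 1 → c j b = 1 → x a = 0 → x b = 1 → d a + d b = 28 →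
        d a = 7 ∧ d b = 21 := by
      intro a b hca hcb hxa hxb hdab
      have ha := A1 a
      have hb := A1 b
      rw [hsum a hca, hxa] at ha
      rw [hsum b hcb, hxb] at hb
      have hdvd := (A6 a).2
      have hne1 : d a ≠ 1 := by
        intro h1
        have := A7u a h1
        rw [this, hcj0 j hj0 hj8] at hca
        exact absurd hca (by norm_num)
      have hm : m a ≤ 3 := by omega
      interval_cases hma : m a
      · omega
      · omega
      · exfalso
        have : d a = 13 := by omega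
        rw [this] at hdvd
        revert hdvd; decide
      · exfalso
        have : d a = 19 := by omega
        rw [this] at hdvd
        revert hdvd; decide
    have hx01 : (x a = 0 ∧ x b = 1) ∨ (x a = 1 ∧ x b = 0) := by omega
    rcases hx01 with ⟨hxa, hxb⟩ | ⟨hxa, hxb⟩
    · obtain ⟨h7, h21⟩ := key a b hcja hcjb hxa hxb hdab
      exact ⟨a, b, hcj, hxa, hxb, h7, h21⟩
    · obtain ⟨h7, h21⟩ := key b a hcjb hcja hxb hxa (by omega)
      exact ⟨b, a, fun χ => by rw [hcj χ, add_comm], hxb, hxa, h7, h21⟩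
  obtain ⟨a2, b2, hc2, hxa2, hxb2, hda2, hdb2⟩ := hmid 2 (Or.inl rfl)
  obtain ⟨a4, b4, hc4, hxa4, hxb4, hda4, hdb4⟩ := hmid 4 (Or.inr (Or.inl rfl))
  obtain ⟨a6, b6, hc6, hxa6, hxb6, hda6, hdb6⟩ := hmid 6 (Or.inr (Or.inr rfl))
  -- the six classes have disjoint supports
  have he : ∀ χ, c 0 χ + c 1 χ + c 2 χ + c 3 χ + c 4 χ + c 6 χ ≤ 1 := by
    intro χ
    have l0 := hle1 0 (by norm_num) χ
    have l1 := hle1 1 (by norm_num) χ
    have l2 := hle1 2 (by norm_num) χ
    have l3 := hle1 3 (by norm_num) χ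
    have l4 := hle1 4 (by norm_num) χ
    have l6 := hle1 6 (by norm_num) χ
    have e01 := Nat.mul_eq_zero.mp
      (hp 0 1 (by norm_num) (by norm_num) (by norm_num) (by norm_num) χ)
    have e02 := Nat.mul_eq_zero.mp
      (hp 0 2 (by norm_num) (by norm_num) (by norm_num) (by norm_num) χ)
    have e03 := Nat.mul_eq_zero.mp
      (hp 0 3 (by norm_num) (by norm_num) (by norm_num) (by norm_num) χ)
    have e04 := Nat.mul_eq_zero.mp
      (hp 0 4 (by norm_num) (by norm_num) (by norm_num) (by norm_num) χ)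
    have e06 := Nat.mul_eq_zero.mp
      (hp 0 6 (by norm_num) (by norm_num) (by norm_num) (by norm_num) χ)
    have e12 := Nat.mul_eq_zero.mp
      (hp 1 2 (by norm_num) (by norm_num) (by norm_num) (by norm_num) χ)
    have e13 := Nat.mul_eq_zero.mp
      (hp 1 3 (by norm_num) (by norm_num) (by norm_num) (by norm_num) χ)
    have e14 := Nat.mul_eq_zero.mp
      (hp 1 4 (by norm_num) (by norm_num) (by norm_num) (by norm_num) χ)
    have e16 := Nat.mul_eq_zero.mp
      (hp 1 6 (by norm_num) (by norm_num) (by norm_num) (by norm_num) χ)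
    have e23 := Nat.mul_eq_zero.mp
      (hp 2 3 (by norm_num) (by norm_num) (by norm_num) (by norm_num) χ)
    have e24 := Nat.mul_eq_zero.mp
      (hp 2 4 (by norm_num) (by norm_num) (by norm_num) (by norm_num) χ)
    have e26 := Nat.mul_eq_zero.mp
      (hp 2 6 (by norm_num) (by norm_num) (by norm_num) (by norm_num) χ)
    have e34 := Nat.mul_eq_zero.mp
      (hp 3 4 (by norm_num) (by norm_num) (by norm_num) (by norm_num) χ)
    have e36 := Nat.mul_eq_zero.mp
      (hp 3 6 (by norm_num) (by norm_num) (by norm_num) (by norm_num) χ)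
    have e46 := Nat.mul_eq_zero.mp
      (hp 4 6 (by norm_num) (by norm_num) (by norm_num) (by norm_num) χ)
    omega
  -- the complement of the supports
  set r : ι → ℕ := fun χ => 1 - (c 0 χ + c 1 χ + c 2 χ + c 3 χ + c 4 χ + c 6 χ) with hr
  have her : ∀ χ, c 0 χ + c 1 χ + c 2 χ + c 3 χ + c 4 χ + c 6 χ + r χ = 1 := by
    intro χ
    have := he χ
    simp only [hr]
    omega
  have hsplit : ∀ g : ι → ℕ, ∑ χ, g χ = (g χ₀ + g St) + g s1 + (g a2 + g b2) + g s3 +
      (g a4 + g b4) + (g a6 + g b6) + ∑ χ, r χ * g χ := by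
    intro g
    have h1 : ∀ χ, g χ = c 0 χ * g χ + c 1 χ * g χ + c 2 χ * g χ + c 3 χ * g χ +
        c 4 χ * g χ + c 6 χ * g χ + r χ * g χ := by
      intro χ
      calc g χ = 1 * g χ := (one_mul _).symm
        _ = (c 0 χ + c 1 χ + c 2 χ + c 3 χ + c 4 χ + c 6 χ + r χ) * g χ := by rw [her χ]
        _ = _ := by ring
    calc ∑ χ, g χ = ∑ χ, (c 0 χ * g χ + c 1 χ * g χ + c 2 χ * g χ + c 3 χ * g χ +
          c 4 χ * g χ + c 6 χ * g χ + r χ * g χ) := Finset.sum_congr rfl (fun χ _ => h1 χ)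
      _ = _ := by
        simp only [Finset.sum_add_distrib]
        rw [sum_ind2 hc0' g, sum_ind1 hc1 g, sum_ind2 hc2 g, sum_ind1 hc3 g, sum_ind2 hc4 g,
          sum_ind2 hc6 g]
  -- the three sums over the complement
  have hS4 : ∑ χ, r χ * x χ ^ 2 = 3 := by
    have h := hsplit (fun χ => x χ ^ 2)
    rw [A4] at h
    simp only [hx0, hxSt, hxs1, hxs3, hxa2, hxb2, hxa4, hxb4, hxa6, hxb6] at h
    omega
  have hS9 : ∑ χ, r χ * (x χ * d χ) = 78 := by
    have h := hsplit (fun χ => x χ * d χ)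
    rw [A9] at h
    simp only [hx0, hxSt, hxs1, hxs3, hxa2, hxb2, hxa4, hxb4, hxa6, hxb6, hd0, hdSt, hds1, hds3,
      hda2, hdb2, hda4, hdb4, hda6, hdb6] at h
    omega
  have hS5 : ∑ χ, r χ * d χ ^ 2 = 2280 := by
    have h := hsplit (fun χ => d χ ^ 2)
    rw [A5] at h
    simp only [hd0, hdSt, hds1, hds3, hda2, hdb2, hda4, hdb4, hda6, hdb6] at h
    omega
  -- on the complement
  have hr01 : ∀ χ, r χ = 0 ∨ r χ = 1 := by
    intro χ
    have := her χ
    omega
  have hR : ∀ χ, r χ = 1 → x χ = 1 ∧ d χ = 8 + 6 * m χ := by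
    intro χ hχ
    have h := her χ
    have hc5 := hc51 χ
    have hc7 := hc73 χ
    have hsum : ∑ i ∈ Finset.range 8, c i χ = 0 := by
      simp only [Finset.sum_range_succ, Finset.sum_range_zero]
      omega
    have hA := A1 χ
    rw [hsum] at hA
    have hx0' : x χ ≠ 0 := by
      intro hx
      apply hcon χ
      rw [hA, hx]
      exact ⟨m χ, by ring⟩
    have hle : r χ * x χ ^ 2 ≤ ∑ χ, r χ * x χ ^ 2 :=
      Finset.single_le_sum (f := fun χ => r χ * x χ ^ 2) (fun i _ => Nat.zero_le _)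
        (Finset.mem_univ χ)
    rw [hS4, hχ, one_mul] at hle
    have hx1 : x χ = 1 := by
      by_contra hne
      have h2 : 2 ≤ x χ := by omega
      have h4 : 2 ^ 2 ≤ x χ ^ 2 := Nat.pow_le_pow_left h2 2
      omega
    refine ⟨hx1, ?_⟩
    rw [hA, hx1]
  have hS0 : ∑ χ, r χ = 3 := by
    rw [← hS4]
    refine Finset.sum_congr rfl (fun χ _ => ?_)
    rcases hr01 χ with h | h
    · rw [h, zero_mul]
    · rw [(hR χ h).1]; ring
  have hL : ∑ χ, r χ * (8 + 6 * m χ) = 78 := by
    rw [← hS9]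
    refine Finset.sum_congr rfl (fun χ _ => ?_)
    rcases hr01 χ with h | h
    · rw [h, zero_mul, zero_mul]
    · rw [(hR χ h).1, (hR χ h).2]; ring
  have hQ : ∑ χ, r χ * (8 + 6 * m χ) ^ 2 = 2280 := by
    rw [← hS5]
    refine Finset.sum_congr rfl (fun χ _ => ?_)
    rcases hr01 χ with h | h
    · rw [h, zero_mul, zero_mul]
    · rw [(hR χ h).2]
  rw [sum_lin] at hL
  rw [sum_quad] at hQ
  have hpar : 2 ∣ ∑ χ, r χ * m χ ^ 2 + ∑ χ, r χ * m χ := by
    rw [← Finset.sum_add_distrib]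
    refine Finset.dvd_sum (fun χ _ => ?_)
    have h2 : 2 ∣ m χ ^ 2 + m χ := by
      have : m χ ^ 2 + m χ = m χ * (m χ + 1) := by ring
      rw [this]
      exact (Nat.even_mul_succ_self (m χ)).two_dvd
    obtain ⟨k, hk⟩ := h2
    exact ⟨r χ * k, by rw [← mul_add, hk]; ring⟩
  omega

end Cfsg.Agent.Lib.Helper15.DG33
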